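import Cfsg.Agent.Mult.Slices
import Cfsg.Agent.U62C.Mul2D

set_option autoImplicit false
set_option Elab.async false
set_option maxRecDepth 100000
set_option linter.all false

namespace Cfsg.Agent.U62C
open Cfsg.Agent.CGT

open Cfsg.Agent.Mult

set_option Elab.async false
theorem u2_t1 : u2_D.vecsK (u2_D.M u2_c) u2_c.F [.fus 16 [14, 13] [13, 14, 17, 20], .fus 16 [16, 15] [15, 16, 19], .fus 16 [11, 11] [17, 19, 20, 21], .fus 16 [14, 14] [19, 21], .fus 16 [16, 16] [21], .fus 17 [22, 22] []] (fun l => beqL l u2_v1) = true := by decide +kernel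
theorem u2_l : u2_D.linB u2_c (u2_v0 ++ (u2_v1)) = true := by decide +kernel

end Cfsg.Agent.U62C
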