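import Cfsg.Agent.Mult.Slices
import Cfsg.Agent.U62C.Tabs

set_option autoImplicit false
set_option Elab.async false
set_option maxRecDepth 100000
set_option linter.all false

namespace Cfsg.Agent.U62C
open Cfsg.Agent.CGT

open Cfsg.Agent.Mult

noncomputable def u3_D : PC := ⟨3, 6, 2, 27,
  [[0, 0x44, 0x110, 0x40, 0x100, 0x400], [0, 0x400, 0x690, 0x440, 0x900, 0x400], [0, 0, 0x400, 0x840, 0x900, 0x400], [0, 0, 0, 0, 0x100, 0x400], [0, 0, 0, 0, 0, 0x400], [0, 0, 0, 0, 0, 0]],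
  [0xf, 0x3f, 0xf, 0, 0, 0],
  [(6, 1, 0x641), (6, 4, 0x949), (6, 0x10, 0x51a), (6, 0x40, 0x80), (6, 0x100, 0x580), (6, 0x400, 0x400), (7, 1, 0x482), (7, 4, 0x55), (7, 0x10, 0x425), (7, 0x40, 0x680), (7, 0x100, 0x980), (7, 0x400, 0x800)], 13, 0x20304030105020400010005⟩
noncomputable def u3_ds : List (List ℕ) := [[15, 7, 0, 9, 10, 8, 7, 13, 5, 0, 9, 2, 9, 0, 5, 0], [7, 0, 17, 13, 0, 9, 10, 8, 0, 9, 13, 14, 9, 13, 2, 6], [2, 5, 10, 12, 0, 10, 4, 4, 12, 2, 10, 13, 9], [6, 16, 0, 10, 0, 17, 14, 14, 7], [5, 7, 13, 10, 8, 0, 14, 9, 2, 8, 12, 0, 14, 9, 2, 0, 6], [13, 2, 5, 0, 4, 7, 9, 15, 8, 0, 15, 4, 2, 10, 0, 14, 7, 5], [15, 8, 0, 9, 15, 2, 8, 7, 2, 6, 6, 9, 2, 14, 13], [13, 8, 15, 12, 8, 0, 17, 13]]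
noncomputable def u3_c : Mult.Cert := ⟨124, 23, [[], [], [], [1], [2], [9]],
  [([15, 16, 16, 35, 35], 1, 0x26aa55422d2fcb5e8)],
  [[0x19a868a5, 0, 0, 0x3097179ea, 0x6410caec1, 0x5243f5941], [0, 0x64a76e96a, 0x4630a336a, 0, 0x3f52b73a34, 0x15eb5ee84b], [0, 0, 0xac1f731fa, 0x3d7d17ba43, 0x3d942f4b8d, 0x74e74f819], [0, 0, 0, 0x290d741, 0x99f2733c, 0x4def8a566], [0, 0, 0, 0, 0xdaf26b, 0x19fa83722], [0, 0, 0, 0, 0, 0x2e2f2292]]⟩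

end Cfsg.Agent.U62C
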