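import Cfsg.Agent.Mult.Slices
import Cfsg.Agent.U62C.Mul3D

set_option autoImplicit false
set_option Elab.async false
set_option maxRecDepth 100000
set_option linter.all false

namespace Cfsg.Agent.U62C
open Cfsg.Agent.CGT

open Cfsg.Agent.Mult

set_option Elab.async false
theorem u3_all : allB u3_D u3_c [.assoc 4 8 4, .assoc 0x10 0x20 0x10, .assoc 0x400 4 1, .assoc 0x400 0x10 1, .assoc 0x40 4 1, .assoc 0x80 0x40 4, .assoc 0x100 4 1, .assoc 4 2 1, .assoc 0x10 2 1, .assoc 0x80 0x40 0x10, .assoc 0x200 0x100 0x10, .assoc 0x10 4 1, .fus 6 [3, 0] [0, 3], .fus 6 [3, 1] [1, 3, 5], .fus 6 [3, 2] [2, 3, 5, 5], .fus 6 [1, 0] [0, 1, 3], .fus 6 [2, 0] [0, 2, 4], .fus 6 [1, 1, 1] [5], .fus 6 [2, 1] [1, 2, 3, 3, 4, 4, 5], .fus 7 [9, 6] [6, 9], .fus 7 [6, 6, 6] [], .fus 7 [10, 7] [7, 10, 11, 11], .fus 7 [8, 8, 8] [11]] 10 m_ts u3_ds [0, 3, 2, 13, 12, 41, 40] [(70, [0x10]), (94, [0x14]),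 (0, [0x400, 0x100]), (1, [1]), (2, [0x140])] = true := by decide +kernel

end Cfsg.Agent.U62C
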