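import Cfsg.Agent.Mult.Slices
import Cfsg.Agent.U62C.Mulc2a

set_option autoImplicit false
set_option Elab.async false
set_option maxRecDepth 100000
set_option linter.all false

namespace Cfsg.Agent.U62C
open Cfsg.Agent.CGT

open Cfsg.Agent.Mult

noncomputable def mulc2b_C : List (ℕ × ℕ) := [(0xa902a62b8938e45087963442d9997105ed544449a7e7c449d0a8e71370be022842c81070dbc988af18280c55014a8051744b9980144425e0a880500060014c2b272a490f19404b42f7743040c1a46c040ea0218c, 0x0),
  (0x9d0e2884135074998b1548412199adbc94858301ac88cb225500c6831932619a698793d85ad8df066010c8881701008d802e05852028009ba3184b5441224cc845a0e8d144ec62052ba18448d208c4026d82a0ca, 0x0),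
  (0xf4cb6e84992225e138669ec8fda250c6744af074b5d65308cccad20ecd514fb2d8c4a62de41a665c591a124eec17812de9272105205c301dc115c8154034a08198a2c7593724c0c13ccdae017761660443c06102, 0x0),
  (0x868bc7f94dbf302efd864f07c473a8bfc306ee2da1a1362300c86ca6de70b69c1005b8328ecb96e039546bc459ded420940dd1150646021c8441e20c11327e8ca91a700de2d8602cfb261e08f3c6ca00d80400d0, 0x0),
  (0xd68d6395cc209c02e9355c28280979c95b558f5d58962c28502e29c14a51c2887b6da388603590edcc1b09585504c80f374101000852041c027287804d44b2034a380046018421550952beed4f7cd81241898140, 0x0),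
  (0xbc1fdd8909495ddd45fd8857e36b59f7479fbf404b74b8cdf484da272b5df18ef70fd6ddc4d814fc8c573ba6897d7f7a68dadeebbb090da33eafbdf6ffd4733d77580e23fc2530a7964c72758bb2b7799d3377f0, 0x0),
  (0xa10c6718cd27d3dad0361b4978f1aa845a8b80483089a9a1edd48010c5aaec9884219c3fc12ba92c239b1ee2ad528845c6215196e640545c1320c994cb74cc2906800f0924b980d1800d180992d0001a48800300, 0x0),
  (0xeab400448a055803ba38223025131c18b200cdf20035700a01424008400d5b2f5213016e2361f0d219ceeb9aec8391c0404500610e415219c660c75857d62022b8deec8e2711008ad449dda0d4fd8892c3800162, 0x0),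
  (0x1ab6fabe02381c1e2a1cbcff34aad50aaf6674915370675301466337143d896ceec801185c892ed1f651d4731f8a3b7263d8fe74fb3fbcebfebf3de4b59f032ef0503aac40000f5411898c2fbac77300aaf7ffee, 0x0)]
noncomputable def mulc2b_U : ℕ := Nat.sub (Nat.pow 2 672) 1
noncomputable def mulc2b_a : List ℕ := [0, 0, 0, 0, 0, 0, 0, 1, 0, 0, 0, 1, 0, 1, 0, 0, 0, 0, 1, 0, 1, 0, 0, 1, 0, 0, 1, 0, 0, 0, 0, 0, 0, 0, 0, 1, 1, 1, 0, 0, 1, 1, 0, 0, 0, 1, 1, 0, 0]

end Cfsg.Agent.U62C
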