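import Cfsg.Agent.Mult.Slices
import Cfsg.Agent.U62C.Mulc2bT0

set_option autoImplicit false
set_option Elab.async false
set_option maxRecDepth 100000
set_option linter.all false

namespace Cfsg.Agent.U62C
open Cfsg.Agent.CGT

open Cfsg.Agent.Mult

theorem mulc2b_proj : Proj (yM 2 mulc2a_ns mulc2b_C) (zM 2 mulc2b_U) 2 qRR mulc2b_a :=
  have hq : 2 = 2 ∨ 2 = 3 ∨ 2 = 4 := by decide
  proj_mono hq mulc2a_v mulc2a_p (MonR.zero.step hq mulc2a_v mulc2b_m0) mulc2b_i

end Cfsg.Agent.U62C
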