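import Cfsg.Agent.Mult.Slices
import Cfsg.Agent.U62C.Mulc3D

set_option autoImplicit false
set_option Elab.async false
set_option maxRecDepth 100000
set_option linter.all false

namespace Cfsg.Agent.U62C
open Cfsg.Agent.CGT

open Cfsg.Agent.Mult

set_option Elab.async false
theorem mulc3_m0 : monB 3 m_ns mulc3_C mulc3_U qRR mulc3_a 0 49 = true := by decide +kernel
theorem mulc3_i : invB m_ns mulc3_U qRR mulc3_a 49 = true := by decide +kernel

end Cfsg.Agent.U62C
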