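import Cfsg.Agent.CGT.Act

set_option autoImplicit false
set_option Elab.async false
set_option maxRecDepth 100000
set_option linter.all false

namespace Cfsg.Agent.U62C
open Cfsg.Agent.CGT

noncomputable def qRR : List (List ℕ) := [[0, 0], [2, 2], [10, 10], [17, 17, 17, 17], [16, 15, 15, 16], [15, 16, 15, 17], [12, 12, 12], [13, 14, 12, 16], [16, 12, 16, 14, 13], [15, 10, 12, 15, 10, 12], [10, 12, 10, 12, 10, 12, 10, 12], [12, 10, 14, 10, 13, 10, 17, 10], [8, 8, 8], [9, 14, 8, 16], [14, 9, 10, 8, 15, 10], [10, 9, 12, 8, 10, 12], [8, 7, 10, 6, 9, 10], [10, 6, 9, 14, 6, 16], [17, 8, 14, 9, 14], [14, 12, 7, 7, 12, 6, 6], [6, 13, 10, 6, 12, 6, 12, 7, 13], [7, 14, 5, 5, 7, 13], [7, 5, 6, 5, 12], [4, 15, 2, 6, 2, 7, 10, 4], [6, 17, 2, 13, 4, 17, 2, 6, 5], [6, 9, 10, 15, 6, 17], [16, 5,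 13, 14, 6, 4, 6], [7, 13, 2, 5, 10, 4, 6, 2, 10], [9, 2, 4, 10, 4, 2, 13, 15, 2, 12, 16], [2, 7, 4, 13, 2, 17, 2, 4, 2, 9, 17], [4, 2, 4, 2, 4, 2, 4, 2, 4, 2], [13, 4, 0, 2, 10, 2, 0, 5, 10, 15], [10, 5, 14, 5, 0, 13, 15, 0, 16, 8, 2], [2, 6, 15, 0, 8, 13, 0, 4, 0, 2, 17, 12], [12, 5, 10, 0, 9, 17, 4, 4, 13, 15, 0, 4], [12, 0, 16, 10, 9, 14, 13, 8, 0, 13, 10], [15, 2, 10, 4, 8, 10, 13, 4, 2, 13, 10], [4, 9, 17, 4, 6, 12, 7, 10, 5, 9, 17, 4], [6, 12, 7, 10, 8, 10, 12, 4, 13, 15, 5], [2, 7, 12, 15, 0, 4, 8, 16, 0, 2, 4, 2, 14, 7], [10, 8, 10, 16, 12, 9, 13], [17, 9, 10, 12, 5, 16, 8, 2, 4, 9, 10, 16, 2], [16, 2, 16, 7, 0, 2, 6, 10, 12, 2, 0, 4, 2, 7], [7, 10, 8, 6, 10, 15, 9], [16, 5, 6, 10, 12, 4, 7, 9], [17, 8, 6, 10, 17, 8, 6], [4, 17, 10, 13, 15, 5, 10], [13, 7, 17, 7, 0, 6, 10,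 15, 4, 0, 2, 6, 9, 2], [0, 2, 0, 2, 0, 2, 0, 2]]

end Cfsg.Agent.U62C
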